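import Cfsg.Prelude.Def_PLocal
import Mathlib.GroupTheory.Nilpotent
import Mathlib.GroupTheory.PGroup

/-!
# Uniserial actions of p-groups
-/

namespace Cfsg.Agent.Uniserial

open Subgroup
open scoped commutatorElement

variable {L : Type*} [Group L]

theorem commutator_invariant {H G : Subgroup L} (hH : G ≤ normalizer (H : Set L)) :
    G ≤ normalizer ((⁅H, G⁆ : Subgroup L) : Set L) ∧ ⁅H, G⁆ ≤ H := by
  constructor
  · intro g hg
    refine mem_normalizer_iff.mpr fun y => ?_
    have key : ∀ g ∈ G, ∀ y ∈ ⁅H, G⁆, g * y * g⁻¹ ∈ ⁅H, G⁆ := by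
      intro g hg y hy
      have h1 : g * y * g⁻¹ ∈ (⁅H, G⁆).map (MulAut.conj g).toMonoidHom := ⟨y, hy, rfl⟩
      rw [map_commutator] at h1
      refine (commutator_mono ?_ ?_) h1
      · rintro _ ⟨w, hw, rfl⟩; exact (mem_normalizer_iff.mp (hH hg) w).mp hw
      · rintro _ ⟨w, hw, rfl⟩; exact mul_mem (mul_mem hg hw) (inv_mem hg)
    refine ⟨key g hg y, fun h => ?_⟩
    have := key g⁻¹ (inv_mem hg) _ h
    rwa [show g⁻¹ * (g * y * g⁻¹) * g⁻¹⁻¹ = y by group] at this
  · rw [commutator_le]
    intro h hh g hg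
    rw [commutatorElement_def, mul_assoc, mul_assoc, ← mul_assoc g]
    exact mul_mem hh ((mem_normalizer_iff.mp (hH hg) _).mp (inv_mem hh))

variable [Finite L] {p : ℕ} [Fact p.Prime]

/-- A p-group cannot be fixed by commutation with a p-group normalizing it. -/
theorem commutator_lt {H G : Subgroup L} (hHp : IsPGroup p H) (hGp : IsPGroup p G)
    (hH : G ≤ normalizer (H : Set L)) (hne : H ≠ ⊥) : ⁅H, G⁆ < H := by
  refine lt_of_le_of_ne (commutator_invariant hH).2 fun he => hne ?_
  have hK : IsPGroup p (H ⊔ G : Subgroup L) := hHp.to_sup_of_normal_left' hGp hH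
  obtain ⟨m, hm⟩ := (isNilpotent_iff_lowerCentralSeries (H ⊔ G)).mp hK.isNilpotent
  have key : ∀ i, H ≤ (H ⊔ G).lowerCentralSeries i := by
    intro i
    induction i with
    | zero => exact le_sup_left
    | succ i ih => rw [Subgroup.lowerCentralSeries_succ]; exact he.ge.trans (commutator_mono ih le_sup_right)
  exact eq_bot_iff.mpr (hm ▸ key m)

/-- The data of a uniserial chain. -/
structure Chain (N G : Subgroup L) (p n : ℕ) : Prop where
  hN : IsPGroup p N
  hGN : G ≤ normalizer (N : Set L)
  card : ∀ i ≤ n, Nat.card (Cfsg.iterCommutator N G i) = p ^ (n - i)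

theorem invariant_iter {N G : Subgroup L} (hGN : G ≤ normalizer (N : Set L)) :
    ∀ i, G ≤ normalizer (Cfsg.iterCommutator N G i : Set L) ∧ Cfsg.iterCommutator N G i ≤ N
  | 0 => ⟨hGN, le_rfl⟩
  | i + 1 => ⟨(commutator_invariant (invariant_iter hGN i).1).1,
      (commutator_invariant (invariant_iter hGN i).1).2.trans (invariant_iter hGN i).2⟩

theorem iter_antitone {N G : Subgroup L} (hGN : G ≤ normalizer (N : Set L)) {i j : ℕ} (hij : i ≤ j) :
    Cfsg.iterCommutator N G j ≤ Cfsg.iterCommutator N G i :=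
  antitone_nat_of_succ_le (fun k => (commutator_invariant (invariant_iter hGN k).1).2) hij

theorem Chain.of_ne_bot {N G : Subgroup L} (hN : IsPGroup p N) (hG : IsPGroup p G)
    (hGN : G ≤ normalizer (N : Set L)) {n : ℕ} (hn : Nat.card N = p ^ n)
    (h : Cfsg.iterCommutator N G (n - 1) ≠ ⊥ ∨ n = 0) : Chain N G p n := by
  have hp : p.Prime := Fact.out
  refine ⟨hN, hGN, ?_⟩
  rcases Nat.eq_zero_or_pos n with rfl | hpos
  · intro i hi; obtain rfl : i = 0 := by omega
    exact hn
  have h' : Cfsg.iterCommutator N G (n - 1) ≠ ⊥ := h.resolve_right hpos.ne'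
  have hex : ∀ i, ∃ e, Nat.card (Cfsg.iterCommutator N G i) = p ^ e :=
    fun i => IsPGroup.iff_card.mp (hN.to_le (invariant_iter hGN i).2)
  choose e he using hex
  have hne : ∀ i ≤ n - 1, Cfsg.iterCommutator N G i ≠ ⊥ := fun i hi hb =>
    h' (eq_bot_iff.mpr (hb ▸ iter_antitone hGN hi))
  have hstep : ∀ i ≤ n - 1, e (i + 1) < e i := by
    intro i hi
    have hlt := commutator_lt (hN.to_le (invariant_iter hGN i).2) hG (invariant_iter hGN i).1 (hne i hi)
    refine (Nat.pow_lt_pow_iff_right hp.one_lt).mp ?_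
    rw [← he, ← he]
    exact Nat.lt_of_le_of_ne (card_le_of_le hlt.le) fun hc => hlt.ne (eq_of_le_of_card_ge hlt.le hc.ge)
  have hup : ∀ i ≤ n, e i + i ≤ n := by
    intro i
    induction i with
    | zero =>
      intro _
      have : p ^ e 0 = p ^ n := (he 0).symm.trans hn
      have := Nat.pow_right_injective hp.two_le this
      omega
    | succ i ih => intro hi; have := ih (by omega); have := hstep i (by omega); omega
  have hdown : ∀ k ≤ n, k ≤ e (n - k) := by
    intro k
    induction k with
    | zero => intro _; omega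
    | succ k ih =>
      intro hk
      have h1 := ih (by omega)
      have h2 := hstep (n - (k + 1)) (by omega)
      rw [show n - (k + 1) + 1 = n - k by omega] at h2
      omega
  intro i hi
  rw [he]
  congr 1
  have h1 := hup i hi
  have h2 := hdown (n - i) (by omega)
  rw [show n - (n - i) = i by omega] at h2
  omega

/-- Uniserial chains: all invariant subgroups are chain terms, and these are normal in `N`. -/
theorem Chain.classify {N G : Subgroup L} {n : ℕ} (h : Chain N G p n) :
    ∀ k ≤ n, (∀ x ∈ Cfsg.iterCommutator N G (n - k), ∀ m, n - k ≤ m → m ≤ n →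
        x ∈ normalizer (Cfsg.iterCommutator N G m : Set L)) ∧
      ∀ H : Subgroup L, H ≤ Cfsg.iterCommutator N G (n - k) → G ≤ normalizer (H : Set L) →
        ∃ m, n - k ≤ m ∧ m ≤ n ∧ H = Cfsg.iterCommutator N G m := by
  have hp : p.Prime := Fact.out
  set C := Cfsg.iterCommutator N G with hC
  have hinv : ∀ i, G ≤ normalizer (C i : Set L) := fun i => (invariant_iter h.hGN i).1
  have hanti : ∀ {i j}, i ≤ j → C j ≤ C i := fun hij => iter_antitone h.hGN hij
  intro k
  induction k with
  | zero =>
    intro _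
    have hbot : C n = ⊥ := card_eq_one.mp (by rw [h.card n le_rfl, Nat.sub_self, pow_zero])
    refine ⟨fun x hx m _ _ => ?_, fun H hH _ => ⟨n, le_rfl, le_rfl, le_antisymm hH ?_⟩⟩
    · rw [Nat.sub_zero, hbot, mem_bot] at hx; rw [hx]; exact one_mem _
    · rw [hbot]; exact bot_le
  | succ k ih =>
    intro hk
    obtain ⟨ihN, ihH⟩ := ih (by omega)
    set i := n - (k + 1) with hi
    have hik : n - k = i + 1 := by omega
    rw [hik] at ihN ihH
    have hcomm : ∀ x ∈ C i, ∀ g ∈ G, ⁅x, g⁆ ∈ C (i + 1) := fun x hx g hg =>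
      commutator_mem_commutator hx hg
    -- index p
    have hidx : (C (i + 1)).relIndex (C i) = p := by
      have h1 := relIndex_mul_relIndex ⊥ (C (i + 1)) (C i) bot_le (hanti (Nat.le_succ i))
      rw [relIndex_bot_left, relIndex_bot_left, h.card _ (by omega), h.card _ (by omega),
        show n - i = (n - (i + 1)) + 1 by omega, pow_succ] at h1
      exact Nat.eq_of_mul_eq_mul_left (pow_pos hp.pos _) h1
    have hnormal : C i ≤ normalizer (C (i + 1) : Set L) := by
      have : ((C (i + 1)).subgroupOf (C i)).Normal := by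
        refine normal_of_index_eq_minFac_card ?_
        show (C (i + 1)).relIndex (C i) = _
        rw [hidx, h.card i (by omega), Nat.pow_minFac (by omega), hp.minFac_eq]
      exact (normal_subgroupOf_iff_le_normalizer (hanti (Nat.le_succ i))).mp this
    have hnorm : ∀ x ∈ C i, ∀ m, i ≤ m → m ≤ n → x ∈ normalizer (C m : Set L) := by
      intro x hx m him hmn
      rcases him.eq_or_lt with rfl | him'
      · exact le_normalizer hx
      set H := (C m).map (MulAut.conj x).toMonoidHom with hH
      have hHle : H ≤ C (i + 1) := by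
        rintro _ ⟨y, hy, rfl⟩
        exact (mem_normalizer_iff.mp (hnormal hx) y).mp (hanti (by omega : i + 1 ≤ m) hy)
      have hHinv : G ≤ normalizer (H : Set L) := by
        intro g hg
        have key : ∀ g ∈ G, ∀ y ∈ H, g * y * g⁻¹ ∈ H := by
          rintro g hg _ ⟨y, hy, rfl⟩
          -- `g x = x c g` with `c` in the smaller term
          set c := x⁻¹ * g * x * g⁻¹ with hc
          have hcmem : c ∈ C (i + 1) := by
            have h3 := hcomm x⁻¹ (inv_mem hx) g hg
            rwa [commutatorElement_def, inv_inv] at h3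
          refine ⟨c * (g * y * g⁻¹) * c⁻¹, (mem_normalizer_iff.mp (ihN c hcmem m (by omega) hmn) _).mp
            ((mem_normalizer_iff.mp (hinv m hg) y).mp hy), ?_⟩
          simp only [MulEquiv.coe_toMonoidHom, MulAut.conj_apply, hc]
          group
        refine mem_normalizer_iff.mpr fun y => ⟨key g hg y, fun hy => ?_⟩
        have := key g⁻¹ (inv_mem hg) _ hy
        rwa [show g⁻¹ * (g * y * g⁻¹) * g⁻¹⁻¹ = y by group] at this
      obtain ⟨m', hm'1, hm'2, he⟩ := ihH H hHle hHinv
      have hcard : Nat.card H = Nat.card (C m) := card_map_of_injective (MulAut.conj x).injective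
      rw [he, h.card _ hm'2, h.card _ hmn] at hcard
      have := Nat.pow_right_injective hp.two_le hcard
      obtain rfl : m' = m := by omega
      rw [mem_normalizer_iff_map_conj_eq]
      exact he
    refine ⟨hnorm, fun H hHi hHG => ?_⟩
    by_cases hH1 : H ≤ C (i + 1)
    · obtain ⟨m, h1, h2, h3⟩ := ihH H hH1 hHG
      exact ⟨m, by omega, h2, h3⟩
    refine ⟨i, le_rfl, by omega, le_antisymm hHi ?_⟩
    have hsup : H ⊔ C (i + 1) = C i := by
      refine le_antisymm (sup_le hHi (hanti (Nat.le_succ i))) ?_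
      have h1 := relIndex_mul_relIndex (C (i + 1)) (H ⊔ C (i + 1)) (C i) le_sup_right
        (sup_le hHi (hanti (Nat.le_succ i)))
      rw [hidx] at h1
      rcases (hp.eq_one_or_self_of_dvd _ (Dvd.intro _ h1)) with h2 | h2
      · exact absurd (le_sup_left.trans (relIndex_eq_one.mp h2)) hH1
      · rw [h2] at h1
        exact relIndex_eq_one.mp (Nat.eq_of_mul_eq_mul_left hp.pos (h1.trans (mul_one p).symm))
    have hinf : G ≤ normalizer ((H ⊓ C (i + 1) : Subgroup L) : Set L) := fun g hg =>
      mem_normalizer_iff.mpr fun y => and_congr (mem_normalizer_iff.mp (hHG hg) y)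
        (mem_normalizer_iff.mp (hinv (i + 1) hg) y)
    obtain ⟨j, hj1, hj2, hj⟩ := ihH _ inf_le_right hinf
    rcases hj1.eq_or_lt with rfl | hj'
    · rw [← hsup]; exact sup_le le_rfl (hj.ge.trans inf_le_left)
    exfalso
    -- all commutators would land two steps down
    have hle : C (i + 1) ≤ C (i + 2) := by
      show ⁅C i, G⁆ ≤ _
      rw [commutator_le]
      intro x hx g hg
      have hx' : x ∈ ((H ⊔ C (i + 1) : Subgroup L) : Set L) := by rw [hsup]; exact hx
      rw [coe_mul_of_left_le_normalizer_right _ _ (hHi.trans hnormal)] at hx'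
      obtain ⟨a, ha, c, hc, rfl⟩ := Set.mem_mul.mp hx'
      have h1 : ⁅a, g⁆ ∈ C (i + 2) := by
        refine hanti (by omega : i + 2 ≤ j) (hj.le ⟨?_, hcomm a (hHi ha) g hg⟩)
        exact (commutator_invariant hHG).2 (commutator_mem_commutator ha hg)
      have h2 : a * ⁅c, g⁆ * a⁻¹ ∈ C (i + 2) :=
        (mem_normalizer_iff.mp (hnorm a (hHi ha) (i + 2) (by omega) (by omega)) _).mp
          (commutator_mem_commutator hc hg)
      have he : ⁅a * c, g⁆ = a * ⁅c, g⁆ * a⁻¹ * ⁅a, g⁆ := by
        simp only [commutatorElement_def]; group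
      rw [he]
      exact mul_mem h2 h1
    have h1 := card_le_of_le hle
    rw [h.card _ (by omega), h.card _ (by omega)] at h1
    have := (Nat.pow_le_pow_iff_right hp.one_lt).mp h1
    omega

end Cfsg.Agent.Uniserial
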